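import Cfsg.Agent.H5.L16.Main
import Cfsg.Agent.H5.L16.C4.Main
import Cfsg.Agent.H5.J3.Main
import Cfsg.Agent.H6.More2
import Cfsg.Agent.H6.F4
import Cfsg.Agent.H3.SL2

set_option autoImplicit false
set_option maxRecDepth 100000
set_option Elab.async false

namespace Cfsg.H6.L16

open Matrix

/-- The field with sixteen elements. -/
abbrev F16 : Type := QuadraticAlgebra F4 (F4.mk 2) 1

instance instFactF16 : Fact (∀ r : F4, r ^ 2 ≠ F4.mk 2 + 1 * r) := ⟨by decide +kernel⟩

instance instFintypeF16 : Fintype F16 :=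
  Fintype.ofEquiv _ (QuadraticAlgebra.equivProd (F4.mk 2) 1).symm

theorem card_F16 : Fintype.card F16 = 16 := by decide +kernel

/-- A vector from its code. -/
def dec (p : ℕ) (i : Fin 2) : F16 := ⟨F4.mk (p / 16 ^ i.val), F4.mk (p / 16 ^ i.val / 4)⟩

/-- The code of a vector. -/
def enc (v : Fin 2 → F16) : ℕ :=
  (v 0).re.val + 4 * (v 0).im.val + 16 * (v 1).re.val + 64 * (v 1).im.val

theorem dec_enc (v : Fin 2 → F16) : dec (enc v) = v := by
  have : ∀ a b : F16, ∀ i, dec (enc ![a, b]) i = ![a, b] i := by decide +kernel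
  have e : v = ![v 0, v 1] := by funext i; fin_cases i <;> rfl
  rw [e]
  exact funext (this _ _)

/-- The matrices of the letters. -/
def mat (x : ℕ) : Matrix (Fin 2) (Fin 2) F16 := of fun i => dec ([4097, 4113, 61444, 16399, 272].getD x 0 / 256 ^ i.val)

/-- The action on vectors. -/
def imgM (x p : ℕ) : ℕ := enc (dec p ᵥ* mat x)

theorem hact : MAct mat dec imgM 5 := fun _ _ _ _ => dec_enc _

theorem hmat : ∀ x < 5, (mat x).det = 1 := by
  simp only [det_fin_two]; decide +kernel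

/-- A matrix of determinant one. -/
def mkSL (A : Matrix (Fin 2) (Fin 2) F16) (h : A.det = 1) : SpecialLinearGroup (Fin 2) F16 := ⟨A, h⟩

/-- The letters in the linear group. -/
def evM (x : ℕ) : SpecialLinearGroup (Fin 2) F16 :=
  if h : 1 ≤ x ∧ x < 5 then mkSL _ (hmat x h.2) else 1

theorem hμ : ∀ x, 1 ≤ x → x < 5 → SpecialLinearGroup.coeMonoidHom (evM x) = mat x := by
  intro x h1 h2
  unfold evM
  rw [dif_pos ⟨h1, h2⟩]
  rfl

theorem oraM : Oracle evM imgM 5 [1, 16] :=
  hact.oracle SpecialLinearGroup.coeMonoidHom_injective hμ (e := fun i => 16 ^ i.val)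
    (by decide +kernel) (by decide +kernel)

theorem iso_sl : Nonempty (Grp ≃* SpecialLinearGroup (Fin 2) F16) := by
  have := simple
  obtain ⟨ψ, hψ⟩ := lift
    (oraM.good (dif_neg (by omega)) (fun l hl => dif_neg (by omega)) (by decide +kernel))
    (oraM.rels (by decide +kernel))
  have h1 : ψ (ev 1) ≠ 1 := by
    rw [hψ, ← evL_singleton evM 1]
    exact hact.ne hμ (w := []) (p := 1) (i := 1) (by decide +kernel) (by decide +kernel)
      (by decide +kernel)
  exact equiv_of_injective ψ (injective_of_simple ψ h1) (by rw [main.1, H3.card_SL2, card_F16]; norm_num)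

def sg : List (List ℕ) := [[], [3], [8,10,2,4,2], [2,4,2,10,9], [2,3,10,7,10,3,10,7,10,3,2]]

def sg2 : List (List ℕ) := [[], [3], [8,10,2,4,2], [2,4,2,10,9], [2,3,10,7,10,3,10,7,10,3,2], [2,4,2]]

def HW : List (List ℕ) := [[3], [8,10,2,4,2], [2,3,10,7,10,3,10,7,10,3,2], [2,4,2]]

theorem iso_sub : Nonempty (Grp ≃* gen J3.ev (X.map (subst sg))) := by
  have := simple
  obtain ⟨ψ, hψ⟩ := lift (J3.main.2.2.good_evS (σ := sg) (by decide +kernel))
    (J3.main.2.2.rels_evS (by decide +kernel))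
  have h := equiv_gen_of_simple ψ hψ hX (w := [1]) (by
    rw [evL_subst]
    exact J3.hφ.ne_one (p := 6) (by decide +kernel))
  rwa [gen_evS] at h

def kW0 : List (List ℕ) := [[nat_lit 3], [nat_lit 2, nat_lit 4, nat_lit 2], [nat_lit 8, nat_lit 10, nat_lit 2, nat_lit 4, nat_lit 2], [nat_lit 2, nat_lit 3, nat_lit 10, nat_lit 7, nat_lit 10, nat_lit 3, nat_lit 10, nat_lit 7, nat_lit 10, nat_lit 3, nat_lit 2]]

theorem k0 : lvlChk J3.img 17442 12 [] (0, kW0, unp 16 (nat_lit 0x6d00000071020000700000009002000071000000b5020000ac000000ae010000ae000000b702000090000000b7010000b70000006c0200006a0000000003)) = true := by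
  decide +kernel

def kW1 : List (List ℕ) := [[nat_lit 2, nat_lit 4, nat_lit 2], [nat_lit 8, nat_lit 10, nat_lit 2, nat_lit 4, nat_lit 2]]

theorem k1 : lvlChk J3.img 17442 12 [0] (1, kW1, unp 4 (nat_lit 0x500000003010000030000000101)) = true := by
  decide +kernel

def kW2 : List (List ℕ) := [[nat_lit 2, nat_lit 4, nat_lit 2]]

theorem k2 : lvlChk J3.img 17442 12 [1,0] (2, kW2, unp 1 (nat_lit 0x200)) = true := by
  decide +kernel

def kW3 : List (List ℕ) := [[nat_lit 3], [nat_lit 2, nat_lit 4, nat_lit 2, nat_lit 10, nat_lit 9, nat_lit 3, nat_lit 8, nat_lit 10, nat_lit 2, nat_lit 4, nat_lit 2]]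

theorem k3 : lvlChk J3.img 17442 12 [2,1,0] (6, kW3, unp 3 (nat_lit 0xb000000060100000600)) = true := by
  decide +kernel

def kW4 : List (List ℕ) := [[nat_lit 2, nat_lit 4, nat_lit 2, nat_lit 8, nat_lit 10, nat_lit 8, nat_lit 10, nat_lit 2, nat_lit 4, nat_lit 2]]

theorem k4 : lvlChk J3.img 17442 12 [6,2,1,0] (7, kW4, unp 2 (nat_lit 0x80000000700)) = true := by
  decide +kernel

def kW5 : List (List ℕ) := [[nat_lit 10, nat_lit 9, nat_lit 3, nat_lit 8, nat_lit 10]]

theorem k5 : lvlChk J3.img 17442 12 [7,6,2,1,0] (206, kW5, unp 1 (nat_lit 0xce00)) = true := by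
  decide +kernel

def kW6 : List (List ℕ) := [[nat_lit 8, nat_lit 10, nat_lit 2, nat_lit 4, nat_lit 2, nat_lit 3, nat_lit 2, nat_lit 4, nat_lit 2, nat_lit 10, nat_lit 9]]

theorem k6 : lvlChk J3.img 17442 12 [206,7,6,2,1,0] (9, kW6, unp 1 (nat_lit 0x900)) = true := by
  decide +kernel

theorem lbH [Finite (gen J3.ev HW)] : LBn J3.φ (gen J3.ev HW) 17442 [9,206,7,6,2,1,0] 8160 :=
  LBn.cast ((((((((LBn.nil J3.φ _ 17442).stepU J3.hφ (mem_of_memChk J3.hev (V := [[0], [3], [1], [2]]) (by decide +kernel)) k0).stepU J3.hφ (mem_of_memChk J3.hev (V := [[3], [1]]) (by decide +kernel)) k1).stepU J3.hφ (mem_of_memChk J3.hev (V := [[3]]) (by decide +kernel)) k2).stepU J3.hφ (mem_of_memChk J3.hev (V := [[0], [5,0,1]]) (by decide +kernel)) k3).stepU J3.hφ (mem_of_memChk J3.hev (V := [[3,1,3,1]]) (by decide +kernel)) k4).stepU J3.hφ (mem_of_memChk J3.hev (V := [[3,5,0,1,3]]) (by decide +kernel)) k5).stepU J3.hφ (mem_of_memChk J3.hev (V := [[1,0,5]]) (by decide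 +kernel)) k6) (by decide +kernel)

theorem result : ∃ (H : Subgroup J3.Grp) (N : Subgroup H),
    N.Normal ∧ N.index = 2 ∧ Nonempty (N ≃* SpecialLinearGroup (Fin 2) F16) := by
  have := J3.finite
  obtain ⟨e⟩ := iso_sub
  obtain ⟨e'⟩ := iso_sl
  have hN : Nat.card (gen J3.ev (X.map (subst sg))) = 4080 := by
    rw [← Nat.card_congr e.toEquiv, main.1]
  have hc := C4.cover (J3.main.2.2.good_evS (σ := sg2) (by decide +kernel))
    (J3.main.2.2.rels_evS (by decide +kernel))
  rw [gen_evS, gen_evS] at hc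
  have hu : UB (gen J3.ev HW) 8160 := UB.cover (N := 4080) ⟨inferInstance, hN.le⟩ hc
  obtain ⟨h1, h2, ⟨e''⟩⟩ := index_two_subgroupOf (H := gen J3.ev HW)
    (gen_mono _ (by decide +kernel)) hN (lbH.1.exact hu.2).1
  exact ⟨_, _, h1, h2, ⟨(e''.trans e.symm).trans e'⟩⟩

end Cfsg.H6.L16
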