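import Cfsg.Agent.H5.L16.Rep
import Cfsg.Agent.H5.L16.C1.Main
import Cfsg.Agent.H5.L16.C2.Main
import Cfsg.Agent.H5.L16.C3.Main

set_option autoImplicit false
set_option maxRecDepth 100000
set_option Elab.async false

namespace Cfsg.H6.L16

theorem cover : Cover (gen ev Ws) ⊤ 17 := hX ▸ C1.cover hev hR

theorem ub : UB (⊤ : Subgroup Grp) 4080 :=
  ((UB.bot.cover (C3.cover hev hR)).cover (C2.cover hev hR)).cover cover

def I : List Ivl := [(1, 17, [4])]

theorem act : ∃ φ : Grp →* Equiv.Perm ℕ, IsAct φ ev img 17 5 := by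
  obtain ⟨ψ, hψ⟩ := lift rep.1 rep.2.1
  exact ⟨_, rep.2.2.comp ψ hψ⟩

/-- The permutation representation. -/
noncomputable def φ : Grp →* Equiv.Perm ℕ := act.choose

theorem hφ : IsAct φ ev img 17 5 := act.choose_spec

theorem prim : Prim φ ev (gen ev Ws) 17 I :=
  prim_sound hφ cover (List.forall_mem_cons.mpr ⟨iv0 hφ, (by simp)⟩) (by decide +kernel)

theorem coatom : IsCoatom (gen ev Ws) :=
  prim.isCoatom hφ hX (C := [[], [0]]) (by decide +kernel)

def lW0 : List (List ℕ) := [[nat_lit 2]]

theorem l0 : lvlChk img 17 5 [1,0] (2, lW0, unp 14 (nat_lit 0x50000000800000004000000060000000a0000000f000000070000000b000000090000000d000000100000000e0000000c0000000200)) = true := by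
  decide +kernel

theorem finite : Finite Grp := ub.top.1

def bs : List ℕ := [2,1,0]

theorem lb : LBn φ ⊤ 17 bs 4080 := by
  have := finite
  exact LBn.cast ((prim.lb2 (e := I.head (by decide)) (List.head_mem _)).stepT hφ l0) (by decide +kernel)

theorem main : Nat.card Grp = 4080 ∧ fixS φ bs = ⊥ ∧ Oracle ev img 5 bs := by
  have := finite
  exact lb.oracle hφ ub.top.2

theorem normal (N : Subgroup Grp) [N.Normal] (hN : N ≠ ⊥) :
    ∀ t ∈ ([[1], [2], [4]] : List (List ℕ)), evL ev t ∈ N := by
  have := finite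
  exact prim.normal_contains hev coatom lb.2 main.2.1 main.2.2 (p := 17) (k := 1) (j := 1) (by norm_num)
    main.1 (x := [3,4,1]) (St := [([3,4,1], [], [4], 15, 2), ([4], [], [2], 2, 15), ([4], [], [1], 3, 2)]) (by decide +kernel) N hN

theorem simple : IsSimpleGroup Grp := by
  have := prim.nontrivial
  exact isSimple_of_contains hX normal

end Cfsg.H6.L16
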