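import Cfsg.Agent.H5.L16.Pres
import Cfsg.Agent.H5.L16.Chk0

set_option autoImplicit false
set_option maxRecDepth 100000
set_option Elab.async false

namespace Cfsg.H6.L16

theorem ptOK : PtOK img 17 LS EQS := ptOK_of_chk fun p h1 h2 => by
  rw [← ptU_eq]
  exact (allR_range p0 (by norm_num : 0 + 17 = 17)) p h1 h2

theorem hrep : repOK 5 17213620480 LS EQS D L16.R = true := by decide +kernel

theorem rep : Good (evR img 17 5) 17213620480 ∧ Rels (evR img 17 5) L16.R ∧
    IsAct (MonoidHom.id _) (evR img 17 5) img 17 5 := rep_sound ptOK hrep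

theorem iv0 {G : Type*} [Group G] {φ : G →* Equiv.Perm ℕ} {ev : ℕ → G} (h : IsAct φ ev img 17 5) :
    orb φ (gen ev Ws) 1 = Set.Ico 1 17 :=
  ivl_sound h (by decide +kernel) (allR_range q0_0 (by norm_num : 1 + 16 = 17))


end Cfsg.H6.L16
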