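import Cfsg.Agent.H6.Chain

set_option autoImplicit false
set_option maxRecDepth 100000
set_option Elab.async false

namespace Cfsg.H6.L16

noncomputable def get (_y : ℕ) : ℕ := (nat_lit 0x168735a439d4b4959051c904c1a31390a524ef42de673ccd59850215867ade52a5444b1c819c6d3206e614448086c084010880100000)

noncomputable def row (p : ℕ) : ℕ :=
  Nat.land (Nat.shiftRight (@Nat.rec (fun _ => ℕ) (nat_lit 0) (fun y _ => get y)
    (Nat.add (Nat.shiftRight p (nat_lit 6)) (nat_lit 1)))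
    (Nat.mul (Nat.land p (nat_lit 63)) (nat_lit 25))) (nat_lit 1073741823)

noncomputable def img (x p : ℕ) : ℕ :=
  Nat.land (Nat.shiftRight (row p) (Nat.mul x (nat_lit 5))) (nat_lit 31)

def LS : List ℕ := [nat_lit 1, nat_lit 2, nat_lit 3, nat_lit 4, nat_lit 5]

def EQS : List (List ℕ × List ℕ) := [([nat_lit 1, nat_lit 1], []), ([nat_lit 2, nat_lit 3], []), ([nat_lit 3, nat_lit 2], []), ([nat_lit 4, nat_lit 4], []), ([nat_lit 5], [nat_lit 2, nat_lit 2, nat_lit 2]), ([nat_lit 5, nat_lit 5, nat_lit 5, nat_lit 5, nat_lit 5], []), ([nat_lit 4, nat_lit 2], [nat_lit 3, nat_lit 4]), ([nat_lit 4, nat_lit 1, nat_lit 4], [nat_lit 1, nat_lit 4, nat_lit 1]), ([nat_lit 1, nat_lit 2, nat_lit 1, nat_lit 3], [nat_lit 2, nat_lit 1, nat_lit 3, nat_lit 1]), ([nat_lit 1, nat_lit 2, nat_lit 2, nat_lit 1, nat_lit 3, nat_lit 3], [nat_lit 2, nat_lit 2, nat_lit 1, nat_lit 3, nat_lit 3, nat_lit 1]), ([nat_lit 2,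 nat_lit 2, nat_lit 2, nat_lit 2, nat_lit 1, nat_lit 3, nat_lit 3], [nat_lit 2, nat_lit 1, nat_lit 3, nat_lit 1, nat_lit 2, nat_lit 2])]

def D : List (ℕ × List ℕ) := [(5, [2,2,2])]

noncomputable def ptU (img : ℕ → ℕ → ℕ) (p : ℕ) : Bool := Nat.beq (Nat.lor (Nat.xor (img (nat_lit 1) (img (nat_lit 1) p)) p)
  (Nat.lor (Nat.xor (img (nat_lit 3) (img (nat_lit 2) p)) p)
  (Nat.lor (Nat.xor (img (nat_lit 2) (img (nat_lit 3) p)) p)
  (Nat.lor (Nat.xor (img (nat_lit 4) (img (nat_lit 4) p)) p)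
  (Nat.lor (Nat.xor (img (nat_lit 5) p) (img (nat_lit 2) (img (nat_lit 2) (img (nat_lit 2) p))))
  (Nat.lor (Nat.xor (img (nat_lit 5) (img (nat_lit 5) (img (nat_lit 5) (img (nat_lit 5) (img (nat_lit 5) p))))) p)
  (Nat.lor (Nat.xor (img (nat_lit 2) (img (nat_lit 4) p)) (img (nat_lit 4) (img (nat_lit 3) p)))
  (Nat.lor (Nat.xor (img (nat_lit 4) (img (nat_lit 1) (img (nat_lit 4) p))) (img (nat_lit 1) (img (nat_lit 4) (img (nat_lit 1) p))))
  (Nat.lor (Nat.xor (img (nat_lit 3) (img (nat_lit 1) (img (nat_lit 2) (img (nat_lit 1) p)))) (img (nat_lit 1) (img (nat_lit 3) (img (nat_lit 1) (img (nat_lit 2) p)))))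
  (Nat.lor (Nat.xor (img (nat_lit 3) (img (nat_lit 3) (img (nat_lit 1) (img (nat_lit 2) (img (nat_lit 2) (img (nat_lit 1) p)))))) (img (nat_lit 1) (img (nat_lit 3) (img (nat_lit 3) (img (nat_lit 1) (img (nat_lit 2) (img (nat_lit 2) p)))))))
  (Nat.lor (Nat.xor (img (nat_lit 3) (img (nat_lit 3) (img (nat_lit 1) (img (nat_lit 2) (img (nat_lit 2) (img (nat_lit 2) (img (nat_lit 2) p))))))) (img (nat_lit 2) (img (nat_lit 2) (img (nat_lit 1) (img (nat_lit 3) (img (nat_lit 1) (img (nat_lit 2) p)))))))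
  (Nat.lor (Nat.div (img (nat_lit 1) p) (nat_lit 17)) (Nat.lor (Nat.div (img (nat_lit 2) p) (nat_lit 17)) (Nat.lor (Nat.div (img (nat_lit 3) p) (nat_lit 17)) (Nat.lor (Nat.div (img (nat_lit 4) p) (nat_lit 17)) (Nat.lor (Nat.div (img (nat_lit 5) p) (nat_lit 17)) (nat_lit 0))))))))))))))))) (nat_lit 0)

theorem ptU_eq (img : ℕ → ℕ → ℕ) (p : ℕ) : ptU img p = chkPt img (nat_lit 17) LS EQS p := rfl

def Ws : List (List ℕ) := [[nat_lit 1], [nat_lit 2]]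

end Cfsg.H6.L16
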